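import Mathlib

set_option autoImplicit false
set_option linter.style.haveILetI false

/-! A commutative group acting regularly on the non-identity elements of an elementary abelian
2-group turns it into a finite field. -/

namespace Cfsg.Agent.Lib.SuzukiTwo.FieldModel

theorem exists_ringEquiv (E : Type*) [CommRing E] (hE : IsField E) [Finite E] {n : ℕ} (hn : n ≠ 0)
    (hcard : Nat.card E = 2 ^ n) :
    ∃ ρ : E → GaloisField 2 n, Function.Bijective ρ ∧ (∀ x y, ρ (x + y) = ρ x + ρ y) ∧
      (∀ x y, ρ (x * y) = ρ x * ρ y) := by
  letI : Field E := hE.toField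
  haveI := Fintype.ofFinite E
  haveI : Fintype (GaloisField 2 n) := Fintype.ofFinite _
  have h : Fintype.card E = Fintype.card (GaloisField 2 n) := by
    rw [← Nat.card_eq_fintype_card, ← Nat.card_eq_fintype_card, hcard, GaloisField.card 2 n hn]
  let ρ := FiniteField.ringEquivOfCardEq h
  exact ⟨ρ, ρ.bijective, map_add ρ, map_mul ρ⟩

/-- the additive structure on `WithZero K` transported from an elementary abelian group -/
noncomputable def addOf {V K : Type*} [CommGroup V] [CommGroup K] (hV : ∀ v : V, v * v = 1)
    (e : WithZero K ≃ V) (he0 : e 0 = 1) : AddCommGroup (WithZero K) :=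
  have hsymm0 : e.symm 1 = 0 := by rw [← he0, Equiv.symm_apply_apply]
  letI iAdd : Add (WithZero K) := ⟨fun x y => e.symm (e x * e y)⟩
  letI iNeg : Neg (WithZero K) := ⟨id⟩
  { add := iAdd.add
    zero := 0
    neg := id
    nsmul := nsmulRec
    zsmul := zsmulRec
    add_assoc := by
      intro a b c
      show e.symm (e (e.symm (e a * e b)) * e c) = e.symm (e a * e (e.symm (e b * e c)))
      rw [Equiv.apply_symm_apply, Equiv.apply_symm_apply, mul_assoc]
    zero_add := by
      intro a
      show e.symm (e 0 * e a) = a
      rw [he0, one_mul, Equiv.symm_apply_apply]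
    add_zero := by
      intro a
      show e.symm (e a * e 0) = a
      rw [he0, mul_one, Equiv.symm_apply_apply]
    add_comm := by
      intro a b
      show e.symm (e a * e b) = e.symm (e b * e a)
      rw [mul_comm]
    neg_add_cancel := by
      intro a
      show e.symm (e a * e a) = 0
      rw [hV, hsymm0] }

/-- the ring structure on `WithZero K` transported from an elementary abelian group -/
noncomputable def ringOf {V K : Type*} [CommGroup V] [CommGroup K] (hV : ∀ v : V, v * v = 1)
    (e : WithZero K ≃ V) (act : K → V → V)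
    (act_hom : ∀ k u v, act k (u * v) = act k u * act k v)
    (he0 : e 0 = 1) (hmul : ∀ (k : K) (x : WithZero K), e ((k : WithZero K) * x) = act k (e x)) :
    CommRing (WithZero K) :=
  have hsymm0 : e.symm 1 = 0 := by rw [← he0, Equiv.symm_apply_apply]
  have hld : ∀ x y z : WithZero K, x * e.symm (e y * e z) =
      e.symm (e (x * y) * e (x * z)) := by
    intro x y z
    induction x using WithZero.recZeroCoe with
    | zero => simp only [zero_mul, he0, mul_one, hsymm0]
    | coe k =>
      apply e.injective
      rw [Equiv.apply_symm_apply, hmul, hmul, hmul, Equiv.apply_symm_apply, act_hom]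
  { addOf hV e he0, (inferInstance : CommGroupWithZero (WithZero K)) with
    left_distrib := hld
    right_distrib := by
      intro a b c
      show e.symm (e a * e b) * c = e.symm (e (a * c) * e (b * c))
      rw [mul_comm, hld, mul_comm c a, mul_comm c b] }

theorem field_model {V K : Type*} [Group V] [Finite V] [Group K]
    (hK : ∀ k l : K, k * l = l * k)
    (hV : ∀ v : V, v * v = 1)
    (act : K → V → V) (act_one : ∀ v, act 1 v = v)
    (act_mul : ∀ k l v, act (k * l) v = act k (act l v))
    (act_hom : ∀ k u v, act k (u * v) = act k u * act k v)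
    (reg : ∀ x y : V, x ≠ 1 → y ≠ 1 → ∃! k : K, act k x = y)
    {v₀ : V} (hv₀ : v₀ ≠ 1) {n : ℕ} (hn : n ≠ 0) (hcard : Nat.card V = 2 ^ n) :
    ∃ (a : V → GaloisField 2 n) (ι : K → GaloisField 2 n), Function.Bijective a ∧
      (∀ u v, a (u * v) = a u + a v) ∧ a v₀ = 1 ∧ (∀ k v, a (act k v) = ι k * a v) := by
  classical
  have hVc : ∀ u v : V, u * v = v * u := by
    intro u v
    have h1 : (u * v)⁻¹ = u * v := inv_eq_of_mul_eq_one_left (hV _)
    rw [mul_inv_rev, inv_eq_of_mul_eq_one_left (hV u), inv_eq_of_mul_eq_one_left (hV v)] at h1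
    exact h1.symm
  letI iV : CommGroup V := { ‹Group V› with mul_comm := hVc }
  letI iK : CommGroup K := { ‹Group K› with mul_comm := hK }
  have act_one' : ∀ k, act k 1 = 1 := by
    intro k
    have := act_hom k 1 1
    rw [mul_one] at this
    exact left_eq_mul.mp this
  have act_inv : ∀ k v, act k⁻¹ (act k v) = v := by
    intro k v; rw [← act_mul, inv_mul_cancel, act_one]
  have act_ne : ∀ k v, v ≠ 1 → act k v ≠ 1 := by
    intro k v hv e
    apply hv
    rw [← act_inv k v, e, act_one']
  let f : WithZero K → V := fun x => WithZero.recZeroCoe (motive := fun _ => V) 1 (fun k => act k v₀) x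
  have hf0 : f 0 = 1 := rfl
  have hfc : ∀ k : K, f (k : WithZero K) = act k v₀ := fun _ => rfl
  have hfb : Function.Bijective f := by
    constructor
    · intro x y hxy
      induction x using WithZero.recZeroCoe with
      | zero =>
        induction y using WithZero.recZeroCoe with
        | zero => rfl
        | coe l =>
          exfalso
          rw [hf0, hfc] at hxy
          exact act_ne l v₀ hv₀ hxy.symm
      | coe k =>
        induction y using WithZero.recZeroCoe with
        | zero =>
          exfalso
          rw [hf0, hfc] at hxy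
          exact act_ne k v₀ hv₀ hxy
        | coe l =>
          rw [hfc, hfc] at hxy
          obtain ⟨u, -, hu⟩ := reg v₀ (act l v₀) hv₀ (act_ne l v₀ hv₀)
          rw [hu k hxy, hu l rfl]
    · intro v
      by_cases hv : v = 1
      · exact ⟨0, by rw [hf0, hv]⟩
      obtain ⟨k, hk, -⟩ := reg v₀ v hv₀ hv
      exact ⟨(k : WithZero K), by rw [hfc, hk]⟩
  let e : WithZero K ≃ V := Equiv.ofBijective f hfb
  have he0 : e 0 = 1 := hf0
  have hec : ∀ k : K, e (k : WithZero K) = act k v₀ := hfc
  have hmul : ∀ (k : K) (x : WithZero K), e ((k : WithZero K) * x) = act k (e x) := by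
    intro k x
    induction x using WithZero.recZeroCoe with
    | zero => rw [mul_zero, he0, act_one']
    | coe l =>
      rw [← WithZero.coe_mul, hec, hec, act_mul]
  have e3' : ∀ x : WithZero K, ((1 : K) : WithZero K) * x = x := by
    intro x
    rw [WithZero.coe_one, one_mul]
  have e4' : ∀ k v, e.symm (act k v) = (k : WithZero K) * e.symm v := by
    intro k v
    rw [Equiv.symm_apply_eq, hmul, Equiv.apply_symm_apply]
  letI R : CommRing (WithZero K) := ringOf hV e act act_hom he0 hmul
  have hE : IsField (WithZero K) :=
    { exists_pair_ne := ⟨0, 1, zero_ne_one⟩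
      mul_comm := fun a b => mul_comm (G := WithZero K) a b
      mul_inv_cancel := by
        intro a ha
        exact ⟨a⁻¹, mul_inv_cancel₀ (G₀ := WithZero K) ha⟩ }
  haveI : Finite (WithZero K) := Finite.of_equiv V e.symm
  obtain ⟨ρ, hρb, hρa, hρm⟩ := exists_ringEquiv (WithZero K) hE hn
    (by rw [Nat.card_congr e, hcard])
  refine ⟨fun v => ρ (e.symm v), fun k => ρ (k : WithZero K), hρb.comp e.symm.bijective, ?_, ?_, ?_⟩
  · intro u v
    show ρ (e.symm (u * v)) = ρ (e.symm u) + ρ (e.symm v)
    rw [← hρa]
    have e2 : e.symm u + e.symm v = e.symm (u * v) := by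
      show e.symm (e (e.symm u) * e (e.symm v)) = _
      rw [Equiv.apply_symm_apply, Equiv.apply_symm_apply]
    rw [e2]
  · have h1 : e.symm v₀ = ((1 : K) : WithZero K) := by
      rw [Equiv.symm_apply_eq, hec, act_one]
    show ρ (e.symm v₀) = 1
    rw [h1]
    obtain ⟨x, hx⟩ := hρb.2 1
    have e3 : ((1 : K) : WithZero K) * x = x := e3' x
    have := hρm ((1 : K) : WithZero K) x
    rw [e3, hx, mul_one] at this
    exact this.symm
  · intro k v
    show ρ (e.symm (act k v)) = ρ (k : WithZero K) * ρ (e.symm v)
    rw [← hρm]
    have e4 : e.symm (act k v) = (k : WithZero K) * e.symm v := e4' k v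
    rw [e4]

end Cfsg.Agent.Lib.SuzukiTwo.FieldModel
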