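import Mathlib
import Cfsg.Agent.Lib.RankOne.FieldAut

set_option autoImplicit false
set_option linter.style.haveILetI false

/-! Multiplicative quadratic maps of a finite field of characteristic two. -/

namespace Cfsg.Agent.Lib.SuzukiTwo.Monomial

open Cfsg.Agent.Lib.RankOne.FieldAut

variable {F : Type*} [Field F]

/-- A multiplicative quadratic map is a product of two automorphisms. -/
theorem exists_aut_mul [Finite F] [CharP F 2] (T : F → F) (h1 : T 1 = 1)
    (hm : ∀ x y, T (x * y) = T x * T y)
    (hq : ∀ x y z : F, T (x + y + z) + T (x + y) + T (x + z) + T (y + z) + T x + T y + T z = 0) :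
    ∃ σ τ : F ≃+* F, ∀ x, T x = σ x * τ x := by
  classical
  haveI := Fintype.ofFinite F
  have hT := quadratic_mem T hq
  let mT : F →* F := { toFun := T, map_one' := h1, map_mul' := hm }
  let v : (F →* F) → (F → F) := fun f => f
  have hv : LinearIndependent F v := linearIndependent_monoidHom F F
  let s : Set (F →* F) := {f | ∃ σ τ : F ≃+* F, ∀ x, f x = σ x * τ x}
  by_contra hno
  have hmT : mT ∉ s := by
    rintro ⟨σ, τ, hf⟩
    exact hno ⟨σ, τ, hf⟩
  have hns := hv.notMem_span_image hmT
  apply hns
  have hle : quadSpan F ≤ Submodule.span F (v '' s) := by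
    unfold quadSpan
    apply Submodule.span_mono
    rintro _ ⟨⟨σ, τ⟩, rfl⟩
    let f : F →* F := ((σ : F →+* F) : F →* F) * ((τ : F →+* F) : F →* F)
    refine ⟨f, ⟨σ, τ, fun x => rfl⟩, rfl⟩
  exact hle hT

/-- If `x ↦ x φ(x)` takes the value `1` only at `1`, the automorphism `φ` has odd order. -/
theorem odd_orderOf [Finite F] [CharP F 2] (φ : F ≃+* F) (h : ∀ x : F, x * φ x = 1 → x = 1) :
    Odd (orderOf φ) := by
  classical
  haveI := Fintype.ofFinite F
  haveI := finite_aut (F := F)
  by_contra hodd
  rw [Nat.not_odd_iff_even] at hodd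
  obtain ⟨m, hm⟩ := hodd
  have hpos : 0 < orderOf φ := orderOf_pos φ
  have h2 : ∀ z : F, z + z = 0 := CharTwo.add_self_eq_zero
  -- powers
  have hpow : ∀ (i : ℕ) (x : F), φ ((φ ^ i) x) = (φ ^ (i + 1)) x := by
    intro i x
    rw [pow_succ']
    rfl
  let S : F → F := fun x => ∑ i ∈ Finset.range m, (φ ^ (2 * i)) x
  have hsum : ∀ (k : ℕ) (x : F), ∑ i ∈ Finset.range k, (φ ^ (2 * i)) x +
      ∑ i ∈ Finset.range k, (φ ^ (2 * i + 1)) x = ∑ i ∈ Finset.range (2 * k), (φ ^ i) x := by
    intro k x
    induction k with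
    | zero => simp
    | succ k ih =>
      have e : 2 * (k + 1) = 2 * k + 1 + 1 := by ring
      have r1 := Finset.sum_range_succ (fun i => (φ ^ (2 * i)) x) k
      have r2 := Finset.sum_range_succ (fun i => (φ ^ (2 * i + 1)) x) k
      have r3 := Finset.sum_range_succ (fun i => (φ ^ i) x) (2 * k + 1)
      have r4 := Finset.sum_range_succ (fun i => (φ ^ i) x) (2 * k)
      rw [e, r1, r2, r3, r4, ← ih]
      ring
  have hφS : ∀ x, φ (S x) = ∑ i ∈ Finset.range m, (φ ^ (2 * i + 1)) x := by
    intro x
    simp only [S, map_sum, hpow]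
  have hφ2S : ∀ x, φ (φ (S x)) = S x := by
    intro x
    rw [hφS]
    simp only [map_sum, hpow]
    -- shift the sum by one
    have e1 : ∀ i, (φ ^ (2 * i + 1 + 1)) x = (φ ^ (2 * (i + 1))) x := fun i => by
      congr 2
    simp only [e1]
    show _ = ∑ i ∈ Finset.range m, (φ ^ (2 * i)) x
    have hm0 : 0 < m := by omega
    obtain ⟨l, rfl⟩ : ∃ l, m = l + 1 := ⟨m - 1, by omega⟩
    rw [Finset.sum_range_succ, Finset.sum_range_succ']
    have e2 : φ ^ (2 * (l + 1)) = 1 := by
      have : 2 * (l + 1) = orderOf φ := by omega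
      rw [this, pow_orderOf_eq_one]
    rw [e2]
    simp
  -- independence
  have hne : ∃ x, φ (S x) ≠ S x := by
    by_contra hno
    push Not at hno
    have hzero : ∀ x : F, ∑ i ∈ Finset.range (2 * m), (φ ^ i) x = 0 := by
      intro x
      rw [← hsum, ← hφS, hno]
      exact h2 _
    have hli := linearIndependent_aut (F := F)
    -- distinct powers
    let g : Fin (2 * m) → (F ≃+* F) := fun i => φ ^ (i : ℕ)
    have hg : Function.Injective g := by
      intro i j hij
      have := (pow_injOn_Iio_orderOf (x := φ))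
        (show (i : ℕ) ∈ Set.Iio (orderOf φ) by simp only [Set.mem_Iio]; have := i.2; omega)
        (show (j : ℕ) ∈ Set.Iio (orderOf φ) by simp only [Set.mem_Iio]; have := j.2; omega) hij
      exact Fin.ext this
    have hli' := hli.comp g hg
    rw [Fintype.linearIndependent_iff] at hli'
    have hz := hli' (fun _ => 1) (by
      funext x
      simp only [one_smul, Finset.sum_apply, Function.comp]
      have hz0 := hzero x
      rw [← Fin.sum_univ_eq_sum_range (fun i => (φ ^ i) x) (2 * m)] at hz0
      simpa [g] using hz0) ⟨0, by omega⟩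
    exact one_ne_zero hz
  obtain ⟨x, hx⟩ := hne
  set y := S x with hy
  have hy0 : φ y ≠ 0 := by
    intro e
    apply hx
    have : y = 0 := by simpa using e
    rw [this, map_zero]
  have hu : (y / φ y) * φ (y / φ y) = 1 := by
    have h22 : φ (φ y) = y := hφ2S x
    rw [map_div₀, h22]
    have hy1 : y ≠ 0 := by
      intro e
      apply hy0
      rw [e, map_zero]
    field_simp
  have := h _ hu
  apply hx
  rw [div_eq_one_iff_eq hy0] at this
  exact this.symm

end Cfsg.Agent.Lib.SuzukiTwo.Monomial
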