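import Mathlib
import Cfsg.Prelude.Def_LieRecognition

set_option autoImplicit false
set_option linter.style.haveILetI false

/-! The 2-groups of type A as explicit groups, and the recognition of a central extension of an
elementary abelian group by its squaring map. -/

namespace Cfsg.Agent.Lib.SuzukiTwo.TypeA

theorem exists_complement {G : Type*} [Group G] [Finite G] (R D T : Subgroup G) (hDT : D ≤ T)
    (hTR : T ≤ R) (hn : ∀ d ∈ D, ∀ r ∈ R, r * d * r⁻¹ ∈ D) (hsq : ∀ r ∈ R, r * r ∈ D) :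
    ∃ S : Subgroup G, D ≤ S ∧ S ≤ R ∧ S ⊓ T = D ∧ ∀ r ∈ R, ∃ s ∈ S, ∃ t ∈ T, r = s * t := by
  obtain ⟨S, -, hS⟩ := Finite.exists_le_maximal (α := Subgroup G)
    (p := fun S : Subgroup G => D ≤ S ∧ S ≤ R ∧ S ⊓ T = D) (a := D)
    ⟨le_refl _, le_trans hDT hTR, inf_eq_left.mpr hDT⟩
  obtain ⟨hDS, hSR, hST⟩ := hS.prop
  refine ⟨S, hDS, hSR, hST, ?_⟩
  intro r hr
  by_contra hno
  push Not at hno
  have hcomm : ∀ a ∈ R, ∀ b ∈ R, a * b * a⁻¹ * b⁻¹ ∈ D := by
    intro a ha b hb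
    have e : a * b * a⁻¹ * b⁻¹ = ((a * b) * (a * b)) * (b⁻¹ * (a⁻¹ * a⁻¹) * b⁻¹⁻¹) * (b⁻¹ * b⁻¹) := by
      group
    rw [e]
    exact D.mul_mem (D.mul_mem (hsq _ (R.mul_mem ha hb))
      (hn _ (hsq _ (R.inv_mem ha)) _ (R.inv_mem hb))) (hsq _ (R.inv_mem hb))
  have hconj : ∀ s ∈ S, r * s * r⁻¹ ∈ S := by
    intro s hs
    have e : r * s * r⁻¹ = (r * s * r⁻¹ * s⁻¹) * s := by group
    rw [e]
    exact S.mul_mem (hDS (hcomm _ hr _ (hSR hs))) hs
  have hconj' : ∀ s ∈ S, r⁻¹ * s * r ∈ S := by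
    intro s hs
    have e : r⁻¹ * s * r = (r⁻¹ * s * r⁻¹⁻¹ * s⁻¹) * s := by group
    rw [e]
    exact S.mul_mem (hDS (hcomm _ (R.inv_mem hr) _ (hSR hs))) hs
  have hrr : r * r ∈ S := hDS (hsq r hr)
  let S' : Subgroup G :=
    { carrier := {x | x ∈ S ∨ x * r⁻¹ ∈ S}
      one_mem' := Or.inl S.one_mem
      mul_mem' := by
        rintro x y (hx | hx) (hy | hy)
        · exact Or.inl (S.mul_mem hx hy)
        · right
          have e : x * y * r⁻¹ = x * (y * r⁻¹) := by group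
          rw [e]
          exact S.mul_mem hx hy
        · right
          have e : x * y * r⁻¹ = (x * r⁻¹) * (r * y * r⁻¹) := by group
          rw [e]
          exact S.mul_mem hx (hconj _ hy)
        · left
          have e : x * y = (x * r⁻¹) * (r * (y * r⁻¹) * r⁻¹) * (r * r) := by group
          rw [e]
          exact S.mul_mem (S.mul_mem hx (hconj _ hy)) hrr
      inv_mem' := by
        rintro x (hx | hx)
        · exact Or.inl (S.inv_mem hx)
        · right
          have e : x⁻¹ * r⁻¹ = (r⁻¹ * (x * r⁻¹)⁻¹ * r) * (r * r)⁻¹ := by group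
          rw [e]
          exact S.mul_mem (hconj' _ (S.inv_mem hx)) (S.inv_mem hrr) }
  have hS'R : S' ≤ R := by
    rintro x (hx | hx)
    · exact hSR hx
    · have e : x = (x * r⁻¹) * r := by group
      rw [e]
      exact R.mul_mem (hSR hx) hr
  have hSS' : S ≤ S' := fun x hx => Or.inl hx
  have hS'T : S' ⊓ T = D := by
    apply le_antisymm
    · rintro x ⟨hx | hx, hxT⟩
      · rw [← hST]
        exact ⟨hx, hxT⟩
      · exfalso
        apply hno _ (S.inv_mem hx) _ hxT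
        group
    · exact le_inf (le_trans hDS hSS') hDT
  have hle := hS.le_of_ge ⟨le_trans hDS hSS', hS'R, hS'T⟩ hSS'
  have hrS : r ∈ S := hle (Or.inr (by rw [mul_inv_cancel]; exact S.one_mem))
  exact hno r hrS 1 T.one_mem (by rw [mul_one])

variable {F : Type*} [Field F]

/-- The group underlying `suzukiTypeA F φ` -/
def TA (_φ : F →+* F) : Type _ := F × F

namespace TA

variable {φ : F →+* F}

/-- constructor -/
def mk' (x y : F) : TA φ := (x, y)

instance : Group (TA φ) where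
  mul a b := (a.1 + b.1, a.2 + b.2 + φ a.1 * b.1)
  one := (0, 0)
  inv a := (-a.1, -a.2 + φ a.1 * a.1)
  mul_assoc a b c := by
    apply Prod.ext
    · show a.1 + b.1 + c.1 = a.1 + (b.1 + c.1)
      ring
    · show a.2 + b.2 + φ a.1 * b.1 + c.2 + φ (a.1 + b.1) * c.1 =
        a.2 + (b.2 + c.2 + φ b.1 * c.1) + φ a.1 * (b.1 + c.1)
      rw [map_add]
      ring
  one_mul a := by
    apply Prod.ext
    · show (0 : F) + a.1 = a.1
      ring
    · show (0 : F) + a.2 + φ 0 * a.1 = a.2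
      rw [map_zero]
      ring
  mul_one a := by
    apply Prod.ext
    · show a.1 + (0 : F) = a.1
      ring
    · show a.2 + (0 : F) + φ a.1 * 0 = a.2
      ring
  inv_mul_cancel a := by
    apply Prod.ext
    · show -a.1 + a.1 = 0
      ring
    · show -a.2 + φ a.1 * a.1 + a.2 + φ (-a.1) * a.1 = 0
      rw [map_neg]
      ring

theorem mul_fst (a b : TA φ) : (a * b).1 = a.1 + b.1 := rfl
theorem mul_snd (a b : TA φ) : (a * b).2 = a.2 + b.2 + φ a.1 * b.1 := rfl
theorem one_fst : (1 : TA φ).1 = 0 := rfl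
theorem one_snd : (1 : TA φ).2 = 0 := rfl
theorem inv_fst (a : TA φ) : (a⁻¹).1 = -a.1 := rfl
theorem inv_snd (a : TA φ) : (a⁻¹).2 = -a.2 + φ a.1 * a.1 := rfl

theorem ext' {a b : TA φ} (h1 : a.1 = b.1) (h2 : a.2 = b.2) : a = b := Prod.ext h1 h2

/-- the matrix of an element -/
def mat (a : TA φ) : Matrix (Fin 3) (Fin 3) F := !![1, 0, 0; a.1, 1, 0; a.2, φ a.1, 1]

/-- the matrix representation -/
def toMat : TA φ →* Matrix (Fin 3) (Fin 3) F where
  toFun := mat
  map_one' := by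
    ext i j
    fin_cases i <;> fin_cases j <;> simp [mat, one_fst, one_snd]
  map_mul' a b := by
    ext i j
    fin_cases i <;> fin_cases j <;>
      simp [mat, Matrix.mul_apply, Fin.sum_univ_three, mul_fst, mul_snd, map_add] <;> ring

theorem toMat_injective : Function.Injective (toMat (φ := φ)) := by
  intro a b hab
  have h1 := congrFun (congrFun hab 1) 0
  have h2 := congrFun (congrFun hab 2) 0
  apply ext'
  · simpa [toMat, mat] using h1
  · simpa [toMat, mat] using h2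

/-- the group is isomorphic to the matrix group in the definition -/
theorem nonempty_equiv : Nonempty (TA φ ≃* Cfsg.suzukiTypeA F φ) := by
  let f : TA φ →* GL (Fin 3) F := (toMat (φ := φ)).toHomUnits
  have hf : ∀ a : TA φ, ((f a : GL (Fin 3) F) : Matrix (Fin 3) (Fin 3) F) = mat a := fun _ => rfl
  have hinj : Function.Injective f := by
    intro a b hab
    apply toMat_injective
    exact congrArg (fun g : GL (Fin 3) F => (g : Matrix (Fin 3) (Fin 3) F)) hab
  have hr : f.range = Cfsg.suzukiTypeA F φ := by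
    apply le_antisymm
    · rintro _ ⟨a, rfl⟩
      apply Subgroup.subset_closure
      exact ⟨a.1, a.2, hf a⟩
    · unfold Cfsg.suzukiTypeA
      rw [Subgroup.closure_le]
      rintro g ⟨x, y, hg⟩
      refine ⟨mk' x y, ?_⟩
      apply Units.ext
      rw [hf, hg]
      rfl
  exact ⟨(MonoidHom.ofInjective hinj).trans (MulEquiv.subgroupCongr hr)⟩

end TA

open TA in
/-- Recognition of the type-A group from its squaring map. -/
theorem nonempty_equiv_TA {P : Type*} [Group P] [Finite P] [Finite F] [CharP F 2] (φ : F →+* F)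
    (Z : Subgroup P) (α b : P → F)
    (hαm : ∀ p p', α (p * p') = α p + α p')
    (hαs : Function.Surjective α)
    (hαk : ∀ p, α p = 0 → p ∈ Z)
    (hαZ : ∀ z ∈ Z, α z = 0)
    (hZc : ∀ z ∈ Z, ∀ p, p * z = z * p)
    (hbm : ∀ z ∈ Z, ∀ z' ∈ Z, b (z * z') = b z + b z')
    (hbi : ∀ z ∈ Z, b z = 0 → z = 1)
    (hbs : ∀ y, ∃ z ∈ Z, b z = y)
    (hsq : ∀ p, p * p ∈ Z ∧ b (p * p) = φ (α p) * α p) :
    Nonempty (P ≃* TA φ) := by
  have h2 : ∀ z : F, z + z = 0 := CharTwo.add_self_eq_zero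
  have hα1 : α 1 = 0 := hαZ 1 Z.one_mem
  have hαinv : ∀ p, α p⁻¹ = -α p := by
    intro p
    have := hαm p⁻¹ p
    rw [inv_mul_cancel, hα1] at this
    exact (neg_eq_of_add_eq_zero_left this.symm).symm
  have hb1 : b 1 = 0 := by
    have := hbm 1 Z.one_mem 1 Z.one_mem
    rw [mul_one] at this
    exact left_eq_add.mp this
  have hbinv : ∀ z ∈ Z, b z⁻¹ = - b z := by
    intro z hz
    have := hbm z⁻¹ (Z.inv_mem hz) z hz
    rw [inv_mul_cancel, hb1] at this
    exact (neg_eq_of_add_eq_zero_left this.symm).symm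
  let G := P × TA φ
  haveI : Finite (TA φ) := inferInstanceAs (Finite (F × F))
  let R : Subgroup G :=
    { carrier := {g | α g.1 = g.2.1}
      one_mem' := hα1
      mul_mem' := by
        intro g g' hg hg'
        show α (g.1 * g'.1) = g.2.1 + g'.2.1
        rw [hαm, hg, hg']
      inv_mem' := by
        intro g hg
        show α g.1⁻¹ = - g.2.1
        rw [hαinv, hg] }
  let T : Subgroup G :=
    { carrier := {g | g.1 ∈ Z ∧ g.2.1 = 0}
      one_mem' := ⟨Z.one_mem, rfl⟩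
      mul_mem' := by
        rintro g g' ⟨h1, h2⟩ ⟨h3, h4⟩
        refine ⟨Z.mul_mem h1 h3, ?_⟩
        show g.2.1 + g'.2.1 = 0
        rw [h2, h4, add_zero]
      inv_mem' := by
        rintro g ⟨h1, h2⟩
        refine ⟨Z.inv_mem h1, ?_⟩
        show - g.2.1 = 0
        rw [h2, neg_zero] }
  let D : Subgroup G :=
    { carrier := {g | g.1 ∈ Z ∧ g.2.1 = 0 ∧ g.2.2 = b g.1}
      one_mem' := ⟨Z.one_mem, rfl, hb1.symm⟩
      mul_mem' := by
        rintro g g' ⟨h1, h2, h3⟩ ⟨h4, h5, h6⟩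
        refine ⟨Z.mul_mem h1 h4, ?_, ?_⟩
        · show g.2.1 + g'.2.1 = 0
          rw [h2, h5, add_zero]
        · show g.2.2 + g'.2.2 + φ g.2.1 * g'.2.1 = b (g.1 * g'.1)
          rw [h2, h3, h6, hbm _ h1 _ h4, map_zero, zero_mul, add_zero]
      inv_mem' := by
        rintro g ⟨h1, h2, h3⟩
        refine ⟨Z.inv_mem h1, ?_, ?_⟩
        · show - g.2.1 = 0
          rw [h2, neg_zero]
        · show - g.2.2 + φ g.2.1 * g.2.1 = b g.1⁻¹
          rw [h2, h3, hbinv _ h1, map_zero, zero_mul, add_zero] }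
  have hDT : D ≤ T := fun g hg => ⟨hg.1, hg.2.1⟩
  have hTR : T ≤ R := by
    rintro g ⟨h1, h2⟩
    show α g.1 = g.2.1
    rw [h2, hαZ _ h1]
  have hn : ∀ d ∈ D, ∀ r ∈ R, r * d * r⁻¹ ∈ D := by
    rintro d ⟨h1, h2, h3⟩ r _
    have e1 : (r * d * r⁻¹).1 = d.1 := by
      show r.1 * d.1 * r.1⁻¹ = d.1
      rw [hZc _ h1 r.1, mul_inv_cancel_right]
    have e2 : (r * d * r⁻¹).2.1 = 0 := by
      show r.2.1 + d.2.1 + - r.2.1 = 0
      rw [h2]; ring
    have e3 : (r * d * r⁻¹).2.2 = d.2.2 := by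
      show r.2.2 + d.2.2 + φ r.2.1 * d.2.1 + (- r.2.2 + φ r.2.1 * r.2.1) + φ (r.2.1 + d.2.1) * (- r.2.1) = d.2.2
      rw [h2, add_zero]; ring
    refine ⟨by rw [e1]; exact h1, e2, by rw [e1, e3]; exact h3⟩
  have hsqR : ∀ r ∈ R, r * r ∈ D := by
    intro r hr
    have hr' : α r.1 = r.2.1 := hr
    refine ⟨(hsq r.1).1, ?_, ?_⟩
    · show r.2.1 + r.2.1 = 0
      exact h2 _
    · show r.2.2 + r.2.2 + φ r.2.1 * r.2.1 = b (r.1 * r.1)
      rw [h2, zero_add, (hsq r.1).2, hr']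
  obtain ⟨S, hDS, hSR, hST, hS⟩ := exists_complement R D T hDT hTR hn hsqR
  -- existence of a partner
  have hex : ∀ p : P, ∃ m : TA φ, ((p, m) : G) ∈ S := by
    intro p
    have hr : ((p, mk' (α p) 0) : G) ∈ R := rfl
    obtain ⟨s, hs, t, ht, e⟩ := hS _ hr
    have hd : ((t.1, mk' 0 (b t.1)) : G) ∈ D := ⟨ht.1, rfl, rfl⟩
    refine ⟨(s * ((t.1, mk' 0 (b t.1)) : G)).2, ?_⟩
    have e1 : ((p, (s * ((t.1, mk' 0 (b t.1)) : G)).2) : G) = s * ((t.1, mk' 0 (b t.1)) : G) := by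
      apply Prod.ext
      · show p = s.1 * t.1
        have := congrArg Prod.fst e
        exact this
      · rfl
    rw [e1]
    exact S.mul_mem hs (hDS hd)
  have hex' : ∀ m : TA φ, ∃ p : P, ((p, m) : G) ∈ S := by
    intro m
    obtain ⟨p₀, hp₀⟩ := hαs m.1
    have hr : ((p₀, m) : G) ∈ R := hp₀
    obtain ⟨s, hs, t, ht, e⟩ := hS _ hr
    obtain ⟨z', hz', hzb⟩ := hbs t.2.2
    have hd : ((z', t.2) : G) ∈ D := ⟨hz', ht.2, hzb.symm⟩
    refine ⟨s.1 * z', ?_⟩
    have e1 : ((s.1 * z', m) : G) = s * (z', t.2) := by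
      apply Prod.ext
      · rfl
      · show m = s.2 * t.2
        have := congrArg Prod.snd e
        exact this
    rw [e1]
    exact S.mul_mem hs (hDS hd)
  have huniq : ∀ p : P, ∀ m m' : TA φ, ((p, m) : G) ∈ S → ((p, m') : G) ∈ S → m = m' := by
    intro p m m' h1 h2
    have h3 : ((p, m) : G)⁻¹ * (p, m') ∈ S := S.mul_mem (S.inv_mem h1) h2
    have hR : α (((p, m) : G)⁻¹ * (p, m')).1 = (((p, m) : G)⁻¹ * (p, m')).2.1 := hSR h3
    have e1 : (((p, m) : G)⁻¹ * (p, m')).1 = 1 := by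
      show p⁻¹ * p = 1
      rw [inv_mul_cancel]
    rw [e1, hα1] at hR
    have hT : ((p, m) : G)⁻¹ * (p, m') ∈ T := ⟨by rw [e1]; exact Z.one_mem, hR.symm⟩
    have hD : ((p, m) : G)⁻¹ * (p, m') ∈ D := by
      rw [← hST]
      exact ⟨h3, hT⟩
    have e2 := hD.2.2
    rw [e1, hb1] at e2
    have e3 : m⁻¹ * m' = 1 := ext' hR.symm e2
    exact (inv_mul_eq_one.mp e3)
  have hinj : ∀ p : P, ((p, (1 : TA φ)) : G) ∈ S → p = 1 := by
    intro p hp
    have hR : α p = 0 := hSR hp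
    have hZ := hαk p hR
    have hT : ((p, (1 : TA φ)) : G) ∈ T := ⟨hZ, rfl⟩
    have hD : ((p, (1 : TA φ)) : G) ∈ D := by
      rw [← hST]
      exact ⟨hp, hT⟩
    exact hbi p hZ hD.2.2.symm
  choose θ hθ using hex
  have hθmul : ∀ p p', θ (p * p') = θ p * θ p' := by
    intro p p'
    apply huniq (p * p') _ _ (hθ _)
    exact S.mul_mem (hθ p) (hθ p')
  let f : P →* TA φ := MonoidHom.mk' θ hθmul
  have hfb : Function.Bijective f := by
    constructor
    · rw [injective_iff_map_eq_one]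
      intro p hp
      apply hinj
      have hθp : θ p = 1 := hp
      have := hθ p
      rwa [hθp] at this
    · intro m
      obtain ⟨p, hp⟩ := hex' m
      exact ⟨p, huniq p _ _ (hθ p) hp⟩
  exact ⟨MulEquiv.ofBijective f hfb⟩

end Cfsg.Agent.Lib.SuzukiTwo.TypeA
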