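import Mathlib
import Cfsg.Prelude.Def_LieRecognition
import Cfsg.Agent.Lib.SuzukiTwo.Quot
import Cfsg.Agent.Lib.SuzukiTwo.FieldModel
import Cfsg.Agent.Lib.SuzukiTwo.TypeA
import Cfsg.Agent.Lib.SuzukiTwo.Monomial

set_option autoImplicit false
set_option linter.style.haveILetI false

/-! A Suzuki 2-group with `|P| = |Z(P)|²` is of type A. -/

namespace Cfsg.Agent.Lib.SuzukiTwo.OrderSq

open Cfsg.Agent.Lib.SuzukiTwo.Basic Cfsg.Agent.Lib.SuzukiTwo.Quot
open Cfsg.Agent.Lib.SuzukiTwo.Monomial Cfsg.Agent.Lib.SuzukiTwo.TypeA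

variable {P : Type*} [Group P] {K : Subgroup (MulAut P)}

set_option maxHeartbeats 1000000 in
theorem of_models {F : Type*} [Field F] [Finite F] [CharP F 2]
    (h : Ctx K) (hnc : ∃ x y : P, x * y ≠ y * x)
    (hZ : ∀ z ∈ Subgroup.center P, z * z = 1)
    (hsq : ∀ v : P ⧸ Subgroup.center P, v * v = 1)
    (hreg : ∀ x y : P ⧸ Subgroup.center P, x ≠ 1 → y ≠ 1 → ∃! k : K, actQ (k : MulAut P) x = y)
    {p₀ : P} (hp₀ : p₀ ∉ Subgroup.center P)
    (a : P ⧸ Subgroup.center P → F) (ι₁ : K → F) (ha : Function.Bijective a)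
    (ham : ∀ u v, a (u * v) = a u + a v) (ha1 : a (p₀ : P ⧸ Subgroup.center P) = 1)
    (haa : ∀ (k : K) v, a (actQ (k : MulAut P) v) = ι₁ k * a v)
    (b : P → F) (ι₂ : K → F)
    (hbm : ∀ z ∈ Subgroup.center P, ∀ z' ∈ Subgroup.center P, b (z * z') = b z + b z')
    (hbi : ∀ z ∈ Subgroup.center P, ∀ z' ∈ Subgroup.center P, b z = b z' → z = z')
    (hbs : ∀ y, ∃ z ∈ Subgroup.center P, b z = y)
    (hb1 : b (p₀ * p₀) = 1)
    (hba : ∀ (k : K), ∀ z ∈ Subgroup.center P, b ((k : MulAut P) z) = ι₂ k * b z) :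
    ∃ φ : F ≃+* F, φ ≠ RingEquiv.refl F ∧ Odd (orderOf φ) ∧
      Nonempty (P ≃* Cfsg.suzukiTypeA F (φ : F →+* F)) := by
  haveI := h.finite
  have h2 : ∀ z : F, z + z = 0 := CharTwo.add_self_eq_zero
  have hc : ∀ z ∈ Subgroup.center P, ∀ g : P, g * z = z * g := fun z hz =>
    Subgroup.mem_center_iff.mp hz
  have hQcomm : ∀ u v : P ⧸ Subgroup.center P, u * v = v * u := by
    intro u v
    have h1 : (u * v)⁻¹ = u * v := inv_eq_of_mul_eq_one_left (hsq _)
    rw [mul_inv_rev, inv_eq_of_mul_eq_one_left (hsq u), inv_eq_of_mul_eq_one_left (hsq v)] at h1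
    exact h1.symm
  have hsqZ : ∀ p : P, p * p ∈ Subgroup.center P := by
    intro p
    rw [← QuotientGroup.eq_one_iff, QuotientGroup.mk_mul]
    exact hsq _
  have hcmZ : ∀ p p' : P, p' * p * p'⁻¹ * p⁻¹ ∈ Subgroup.center P := by
    intro p p'
    rw [← QuotientGroup.eq_one_iff]
    simp only [QuotientGroup.mk_mul, QuotientGroup.mk_inv]
    rw [hQcomm (p' : P ⧸ Subgroup.center P) p]
    group
  -- the additive map on `P`
  let α : P → F := fun p => a (p : P ⧸ Subgroup.center P)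
  have hαm : ∀ p p', α (p * p') = α p + α p' := by
    intro p p'
    show a ((p * p' : P) : P ⧸ Subgroup.center P) = _
    rw [QuotientGroup.mk_mul]
    exact ham _ _
  have ha0 : a 1 = 0 := by
    have := ham 1 1
    rw [mul_one] at this
    exact left_eq_add.mp this
  have hαZ : ∀ z ∈ Subgroup.center P, α z = 0 := by
    intro z hz
    show a (z : P ⧸ Subgroup.center P) = 0
    rw [(QuotientGroup.eq_one_iff z).mpr hz, ha0]
  have hαk : ∀ p, α p = 0 → p ∈ Subgroup.center P := by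
    intro p hp
    rw [← QuotientGroup.eq_one_iff]
    apply ha.1
    rw [ha0]
    exact hp
  have hαs : Function.Surjective α := ha.2.comp QuotientGroup.mk_surjective
  have hαact : ∀ (k : K) p, α ((k : MulAut P) p) = ι₁ k * α p := fun k p =>
    haa k (p : P ⧸ Subgroup.center P)
  have hα₀ : α p₀ = 1 := ha1
  have hb00 : b 1 = 0 := by
    have := hbm 1 (Subgroup.one_mem _) 1 (Subgroup.one_mem _)
    rw [mul_one] at this
    exact left_eq_add.mp this
  choose sec hsec using hαs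
  let T : F → F := fun x => b (sec x * sec x)
  have hTα : ∀ p, T (α p) = b (p * p) := by
    intro p
    show b (sec (α p) * sec (α p)) = b (p * p)
    set s := sec (α p) with hs
    have e1 : α s = α p := hsec _
    have e2 : (s : P ⧸ Subgroup.center P) = p := ha.1 e1
    have e3 : s⁻¹ * p ∈ Subgroup.center P := QuotientGroup.eq.mp e2
    set w := s⁻¹ * p with hw
    have e4 : p = s * w := by rw [hw, mul_inv_cancel_left]
    have e5 : p * p = s * s := by
      rw [e4]
      calc s * w * (s * w) = s * (w * s) * w := by group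
        _ = s * (s * w) * w := by rw [← hc _ e3 s]
        _ = s * s * (w * w) := by group
        _ = s * s := by rw [hZ _ e3, mul_one]
    rw [e5]
  have hT0 : T 0 = 0 := by
    have := hTα 1
    rw [hαZ 1 (Subgroup.one_mem _), mul_one, hb00] at this
    exact this
  have hT1 : T 1 = 1 := by
    have := hTα p₀
    rw [hα₀, hb1] at this
    exact this
  have hk : ∀ p, p ∉ Subgroup.center P → ∃ k : K, α p = ι₁ k ∧ T (α p) = ι₂ k := by
    intro p hp
    have hp₀' : (p₀ : P ⧸ Subgroup.center P) ≠ 1 := fun e => hp₀ ((QuotientGroup.eq_one_iff _).mp e)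
    have hp' : (p : P ⧸ Subgroup.center P) ≠ 1 := fun e => hp ((QuotientGroup.eq_one_iff _).mp e)
    obtain ⟨k, hk, -⟩ := hreg _ _ hp₀' hp'
    have e1 : α ((k : MulAut P) p₀) = α p := congrArg a hk
    have e2 : α p = ι₁ k := by
      rw [← e1, hαact, hα₀, mul_one]
    refine ⟨k, e2, ?_⟩
    rw [← e1, hTα, ← map_mul, hba k _ (hsqZ p₀), hb1, mul_one]
  have hTmul : ∀ x y, T (x * y) = T x * T y := by
    intro x y
    obtain ⟨p, rfl⟩ : ∃ p, α p = x := ⟨_, hsec x⟩
    obtain ⟨p', rfl⟩ : ∃ p', α p' = y := ⟨_, hsec y⟩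
    by_cases hp : p ∈ Subgroup.center P
    · rw [hαZ p hp, zero_mul, hT0, zero_mul]
    · obtain ⟨k, e1, e2⟩ := hk p hp
      rw [e2, e1, ← hαact, hTα, ← map_mul, hba k _ (hsqZ p'), hTα]
  have hbadd3 : ∀ p p' : P, (p * p') * (p * p') = (p * p) * (p' * p') * (p' * p * p'⁻¹ * p⁻¹) := by
    intro p p'
    set c := p' * p * p'⁻¹ * p⁻¹ with hcdef
    have e1 : p' * p = c * p * p' := by rw [hcdef]; group
    have hcc := hc _ (hcmZ p p')
    calc (p * p') * (p * p') = p * (p' * p) * p' := by group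
      _ = p * (c * p * p') * p' := by rw [e1]
      _ = (p * c) * p * (p' * p') := by group
      _ = (c * p) * p * (p' * p') := by rw [hcc p]
      _ = c * (p * p * (p' * p')) := by group
      _ = (p * p) * (p' * p') * c := by rw [← hcc]
  have hpol : ∀ p p' : P, T (α p + α p') = T (α p) + T (α p') + b (p' * p * p'⁻¹ * p⁻¹) := by
    intro p p'
    rw [← hαm, hTα, hTα, hTα, hbadd3, hbm _ (Subgroup.mul_mem _ (hsqZ p) (hsqZ p')) _ (hcmZ p p'),
      hbm _ (hsqZ p) _ (hsqZ p')]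
  have hcadd : ∀ p p' p'' : P, p'' * (p * p') * p''⁻¹ * (p * p')⁻¹ =
      (p'' * p * p''⁻¹ * p⁻¹) * (p'' * p' * p''⁻¹ * p'⁻¹) := by
    intro p p' p''
    have e1 : p'' * (p * p') * p''⁻¹ * (p * p')⁻¹ =
        (p'' * p * p''⁻¹) * (p'' * p' * p''⁻¹ * p'⁻¹) * p⁻¹ := by group
    rw [e1, mul_assoc, ← hc _ (hcmZ p' p'') p⁻¹, ← mul_assoc, mul_assoc (p'' * p * p''⁻¹)]
  have hTq : ∀ x y z : F, T (x + y + z) + T (x + y) + T (x + z) + T (y + z) + T x + T y + T z = 0 := by
    intro x y z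
    obtain ⟨p, rfl⟩ : ∃ p, α p = x := ⟨_, hsec x⟩
    obtain ⟨p', rfl⟩ : ∃ p', α p' = y := ⟨_, hsec y⟩
    obtain ⟨p'', rfl⟩ : ∃ p'', α p'' = z := ⟨_, hsec z⟩
    have e1 := hpol (p * p') p''
    rw [hαm, hcadd, hbm _ (hcmZ p p'') _ (hcmZ p' p'')] at e1
    have e2 := hpol p p''
    have e3 := hpol p' p''
    linear_combination e1 + e2 + e3 + h2 (T (α p + α p')) + h2 (T (α p)) + h2 (T (α p'))
      + 2 * h2 (T (α p'')) + h2 (b (p'' * p * p''⁻¹ * p⁻¹)) + h2 (b (p'' * p' * p''⁻¹ * p'⁻¹))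
  obtain ⟨σ, τ, hστ⟩ := exists_aut_mul T hT1 hTmul hTq
  let φ : F ≃+* F := σ.symm.trans τ
  have hφ : ∀ x, φ (σ x) = τ x := by
    intro x
    show τ (σ.symm (σ x)) = τ x
    rw [RingEquiv.symm_apply_apply]
  let α' : P → F := fun p => σ (α p)
  have hbsq : ∀ p, b (p * p) = φ (α' p) * α' p := by
    intro p
    rw [← hTα, hστ, mul_comm]
    show _ = φ (σ (α p)) * σ (α p)
    rw [hφ]
  refine ⟨φ, ?_, ?_, ?_⟩
  · -- `φ ≠ 1`
    intro hφ1
    have hφid : ∀ x, φ x = x := fun x => by rw [hφ1]; rfl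
    obtain ⟨x, y, hxy⟩ := hnc
    apply hxy
    have e1 : b ((x * y) * (x * y)) = b ((x * x) * (y * y)) := by
      rw [hbsq, hbm _ (hsqZ x) _ (hsqZ y), hbsq, hbsq, hφid, hφid, hφid]
      show σ (α (x * y)) * σ (α (x * y)) = _
      rw [hαm, map_add]
      linear_combination h2 (σ (α x) * σ (α y))
    have e2 := hbi _ (hsqZ _) _ (Subgroup.mul_mem _ (hsqZ x) (hsqZ y)) e1
    have e3 : x * (y * x) * y = x * (x * y) * y := by
      calc x * (y * x) * y = (x * y) * (x * y) := by group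
        _ = (x * x) * (y * y) := e2
        _ = x * (x * y) * y := by group
    have e4 : y * x = x * y := by
      have := mul_left_cancel (mul_right_cancel e3)
      exact this
    exact e4.symm
  · -- odd order
    apply odd_orderOf
    intro x' hx'
    have hTx : T (σ.symm x') = 1 := by
      rw [hστ, RingEquiv.apply_symm_apply]
      have : τ (σ.symm x') = φ x' := rfl
      rw [this]
      exact hx'
    obtain ⟨p, hp⟩ : ∃ p, α p = σ.symm x' := ⟨_, hsec _⟩
    rw [← hp] at hTx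
    by_cases hpZ : p ∈ Subgroup.center P
    · exfalso
      rw [hαZ p hpZ, hT0] at hTx
      exact zero_ne_one hTx
    obtain ⟨k, e1, e2⟩ := hk p hpZ
    rw [hTx] at e2
    have e3 : b ((k : MulAut P) (p₀ * p₀)) = b (p₀ * p₀) := by
      rw [hba k _ (hsqZ p₀), hb1, mul_one, ← e2]
    have e4 := hbi _ (Ctx.aut_center (hsqZ p₀)) _ (hsqZ p₀) e3
    have hp₀1 : p₀ * p₀ ≠ 1 := fun e => hp₀ (h.invol_center e)
    have e5 : (k : MulAut P) = 1 := h.eq_one_of_fix k.2 hp₀1 e4
    have e6 : k = 1 := Subtype.ext e5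
    have e7 : ι₁ 1 = 1 := by
      have := hαact 1 p₀
      rw [hα₀, mul_one] at this
      rw [← this]
      exact hα₀
    rw [e6, e7] at e1
    rw [e1] at hp
    have := congrArg σ hp
    rw [RingEquiv.apply_symm_apply, map_one] at this
    exact this.symm
  · have hα's : Function.Surjective α' := by
      intro y
      refine ⟨sec (σ.symm y), ?_⟩
      show σ (α (sec (σ.symm y))) = y
      rw [hsec, RingEquiv.apply_symm_apply]
    obtain ⟨e1⟩ := nonempty_equiv_TA (φ : F →+* F) (Subgroup.center P) α' b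
      (by
        intro p p'
        show σ (α (p * p')) = σ (α p) + σ (α p')
        rw [hαm, map_add])
      hα's
      (by
        intro p hp
        apply hαk
        have hp' : σ (α p) = 0 := hp
        simpa using hp')
      (by
        intro z hz
        show σ (α z) = 0
        rw [hαZ z hz, map_zero])
      hc
      hbm
      (by
        intro z hz hz0
        apply hbi z hz 1 (Subgroup.one_mem _)
        rw [hz0, hb00])
      hbs
      (fun p => ⟨hsqZ p, hbsq p⟩)
    obtain ⟨e2⟩ := TA.nonempty_equiv (φ := (φ : F →+* F))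
    exact ⟨e1.trans e2⟩

theorem main (hP : Cfsg.IsSuzukiTwoGroup P)
    (hcard : Nat.card P = Nat.card (Subgroup.center P) ^ 2) :
    ∃ (F : Type) (_ : Field F) (_ : Fintype F) (φ : F ≃+* F),
      Fintype.card F = Nat.card (Subgroup.center P) ∧
      φ ≠ RingEquiv.refl F ∧ Odd (orderOf φ) ∧
      Nonempty (P ≃* Cfsg.suzukiTypeA F (φ : F →+* F)) := by
  classical
  obtain ⟨K, h⟩ := exists_ctx hP
  have hnc : ∃ x y : P, x * y ≠ y * x := hP.2.2.1
  haveI := h.finite
  haveI := h.finite_K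
  have hZ : ∀ z ∈ Subgroup.center P, z * z = 1 := fun z hz => Central.center_sq h hnc hz
  -- `Z(P)` is a proper subgroup
  obtain ⟨p₀, hp₀⟩ : ∃ p₀, p₀ ∉ Subgroup.center P := by
    obtain ⟨x, y, hxy⟩ := hnc
    refine ⟨x, fun hx => hxy ?_⟩
    exact ((Subgroup.mem_center_iff.mp hx) y).symm
  have hp₀' : (p₀ : P ⧸ Subgroup.center P) ≠ 1 := fun e => hp₀ ((QuotientGroup.eq_one_iff _).mp e)
  haveI hnt : Nontrivial (P ⧸ Subgroup.center P) := ⟨⟨_, _, hp₀'⟩⟩
  have hsq := sqQ h hZ hcard hnt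
  have hreg := regQ h hZ hcard
  -- the field
  have hpZ : IsPGroup 2 (Subgroup.center P) := h.pgroup.to_subgroup _
  obtain ⟨n, hn⟩ := IsPGroup.iff_card.mp hpZ
  have hn0 : n ≠ 0 := by
    rintro rfl
    rw [pow_zero] at hn
    have hc1 := card_Q hcard
    rw [hn] at hc1
    haveI : Subsingleton (P ⧸ Subgroup.center P) := (Nat.card_eq_one_iff_unique.mp hc1).1
    exact hp₀' (Subsingleton.elim _ _)
  have hKc : ∀ k l : K, k * l = l * k := by
    haveI := h.cyc
    exact (IsCyclic.commGroup (α := K)).mul_comm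
  obtain ⟨a, ι₁, ha, ham, ha1, haa⟩ := FieldModel.field_model (V := P ⧸ Subgroup.center P) (K := K)
    hKc hsq (fun k v => actQ (k : MulAut P) v) (fun v => actQ_one v)
    (fun k l v => actQ_mul _ _ v) (fun k u v => map_mul _ _ _) hreg hp₀' hn0
    (by rw [card_Q hcard, hn])
  -- the model of the centre
  have hp₀p₀ : (⟨p₀ * p₀, by
      rw [← QuotientGroup.eq_one_iff, QuotientGroup.mk_mul]; exact hsq _⟩ : Subgroup.center P) ≠ 1 := by
    intro e
    apply hp₀
    exact h.invol_center (congrArg Subtype.val e)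
  obtain ⟨b', ι₂, hb, hbm, hb1, hba⟩ := FieldModel.field_model (V := Subgroup.center P) (K := K)
    hKc (fun v => Subtype.ext (hZ _ v.2))
    (fun k z => ⟨(k : MulAut P) z, Ctx.aut_center z.2⟩)
    (fun z => rfl) (fun k l z => rfl) (fun k u v => Subtype.ext (map_mul _ _ _))
    (by
      intro x y hx hy
      have hx' : (x : P) ≠ 1 := fun e => hx (Subtype.ext e)
      have hy' : (y : P) ≠ 1 := fun e => hy (Subtype.ext e)
      obtain ⟨k, hk, hu⟩ := h.reg x y hx' (hZ _ x.2) hy' (hZ _ y.2)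
      refine ⟨k, Subtype.ext hk, fun l hl => hu l ?_⟩
      exact congrArg Subtype.val hl)
    hp₀p₀ hn0 hn
  let b : P → GaloisField 2 n := fun p => if hp : p ∈ Subgroup.center P then b' ⟨p, hp⟩ else 0
  have hbb : ∀ z (hz : z ∈ Subgroup.center P), b z = b' ⟨z, hz⟩ := fun z hz => dif_pos hz
  obtain ⟨φ, h1, h2, h3⟩ := of_models h hnc hZ hsq hreg hp₀ a ι₁ ha ham ha1 haa b ι₂
    (by
      intro z hz z' hz'
      rw [hbb z hz, hbb z' hz', hbb _ (Subgroup.mul_mem _ hz hz')]
      exact hbm ⟨z, hz⟩ ⟨z', hz'⟩)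
    (by
      intro z hz z' hz' e
      rw [hbb z hz, hbb z' hz'] at e
      exact congrArg Subtype.val (hb.1 e))
    (by
      intro y
      obtain ⟨z, hz⟩ := hb.2 y
      exact ⟨z, z.2, by rw [hbb z z.2]; exact hz⟩)
    (by
      rw [hbb _ (show p₀ * p₀ ∈ Subgroup.center P from by
        rw [← QuotientGroup.eq_one_iff, QuotientGroup.mk_mul]; exact hsq _)]
      exact hb1)
    (by
      intro k z hz
      rw [hbb _ hz, hbb _ (Ctx.aut_center hz)]
      exact hba k ⟨z, hz⟩)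
  letI iF : Fintype (GaloisField 2 n) := Fintype.ofFinite _
  refine ⟨GaloisField 2 n, inferInstance, iF, φ, ?_, h1, h2, h3⟩
  rw [← Nat.card_eq_fintype_card, GaloisField.card 2 n hn0, hn]

end Cfsg.Agent.Lib.SuzukiTwo.OrderSq
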